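import Cfsg.Agent.Lib.BS.Local
import Cfsg.Agent.Lib.KS2.NormTwo
import Cfsg.Agent.Lib.Char.Induced
import Cfsg.Agent.Lib.Char.Burnside
import Mathlib

/-!
# Brauer–Suzuki, order at least 16: the exceptional characters.  Owner: helper20.
-/

set_option autoImplicit false
set_option linter.unusedSectionVars false
set_option linter.unusedVariables false

namespace Cfsg.Agent.Lib.BS

open Subgroup Cfsg Cfsg.Agent.Lib.Char
open scoped ComplexConjugate

universe u

variable {G : Type u} [Group G]

/-- The imaginary unit as a unit. -/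
noncomputable def unitI : ℂˣ := Units.mk0 Complex.I Complex.I_ne_zero

theorem unitI_sq : unitI ^ 2 = -1 := by
  apply Units.ext
  simp [unitI]

theorem unitI_pow_four : unitI ^ 4 = 1 := by
  have : unitI ^ 4 = (unitI ^ 2) ^ 2 := by rw [← pow_mul]
  rw [this, unitI_sq]
  simp

theorem neg_one_unit_ne_one : (-1 : ℂˣ) ≠ 1 := by
  intro h
  have := congrArg (fun u : ℂˣ => (u : ℂ)) h
  norm_num at this

theorem unitI_pow_eq_one_iff (j : ℕ) : unitI ^ j = 1 → 4 ∣ j := by
  intro h
  have h1 : j = 4 * (j / 4) + j % 4 := (Nat.div_add_mod j 4).symm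
  have h2 : unitI ^ (j % 4) = 1 := by
    rw [h1, pow_add, pow_mul, unitI_pow_four, one_pow, one_mul] at h
    simpa using h
  have h3 : j % 4 < 4 := Nat.mod_lt _ (by norm_num)
  apply Nat.dvd_of_mod_eq_zero
  interval_cases hj : j % 4
  · rfl
  · exfalso
    have := congrArg (fun u : ℂˣ => (u : ℂ)) h2
    simp [unitI] at this
    have h5 := congrArg Complex.im this
    simp at h5
  · exfalso
    rw [unitI_sq] at h2
    exact neg_one_unit_ne_one h2
  · exfalso
    have := congrArg (fun u : ℂˣ => (u : ℂ)) h2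
    simp [unitI, pow_succ] at this
    have h5 := congrArg Complex.im this
    simp at h5

section Finite

variable [Finite G] {T : Sylow 2 G} {a x : G} {m : ℕ}

namespace QData

/-- The linear character of `C(D)`, of order four. -/
theorem exists_lambda (h : QData (T : Subgroup G) a x m) :
    ∃ lam : CC a →* ℂˣ, (∀ c : CC a, lam c ≠ 1 → m ∣ orderOf (c : G)) ∧
      (∀ y y' : CC a, (y' : G) = x⁻¹ * y * x → lam y' = (lam y)⁻¹) ∧
      (lam ⟨a, a_mem_C a⟩) ^ 2 = -1 := by
  obtain ⟨K, r, n, hn, hr, hra, hrK, hK, hodd, hsup⟩ := h.exists_K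
  obtain ⟨k, hk⟩ := h.hm
  let r' : CC a →* zpowers a := r.codRestrict (zpowers a) hr
  let g : zpowers a := ⟨a, mem_zpowers a⟩
  have hg : ∀ z : zpowers a, z ∈ zpowers g := by
    rintro ⟨z, hz⟩
    obtain ⟨i, rfl⟩ := mem_zpowers_iff.mp hz
    exact mem_zpowers_iff.mpr ⟨i, Subtype.ext (by simp [g])⟩
  have hord : orderOf unitI ∣ orderOf g := by
    have h1 : orderOf unitI ∣ 4 := orderOf_dvd_of_pow_eq_one unitI_pow_four
    have h2 : orderOf g = 2 * m := by
      rw [Subgroup.orderOf_mk, h.ha]
    rw [h2]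
    exact h1.trans ((h.four_dvd).trans (Dvd.intro_left _ rfl))
  let μ : zpowers a →* ℂˣ := monoidHomOfForallMemZpowers hg hord
  have hμ : μ g = unitI := monoidHomOfForallMemZpowers_apply_gen hg hord
  have hμpow : ∀ j : ℕ, ∀ z : zpowers a, (z : G) = a ^ j → μ z = unitI ^ j := by
    intro j z hz
    have : z = g ^ j := Subtype.ext (by simpa [g] using hz)
    rw [this, map_pow, hμ]
  let lam : CC a →* ℂˣ := μ.comp r'
  have hlam : ∀ (c : CC a) (j : ℕ), r c = a ^ j → lam c = unitI ^ j := by
    intro c j hj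
    exact hμpow j (r' c) hj
  have hlamK : ∀ c : CC a, (c : G) ∈ K → lam c = 1 := by
    intro c hc
    have := (hrK c).2 hc
    simpa using hlam c 0 (by simpa using this)
  have hla : lam ⟨a, a_mem_C a⟩ = unitI ^ n := hlam _ n hra
  refine ⟨lam, ?_, ?_, ?_⟩
  · intro c hc
    obtain ⟨j, hj⟩ := (mem_powers_iff_mem_zpowers).2 (hr c)
    have hj' : r c = a ^ j := hj.symm
    have h4 : ¬ 4 ∣ j := by
      intro h4
      apply hc
      rw [hlam c j hj']
      obtain ⟨q, rfl⟩ := h4
      rw [pow_mul, unitI_pow_four, one_pow]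
    have h5 : orderOf (r c) ∣ orderOf c := orderOf_map_dvd r c
    rw [Subgroup.orderOf_coe]
    refine Dvd.dvd.trans ?_ h5
    rw [hj', orderOf_pow, h.ha]
    have hm := h.m_pos
    set d := (2 * m).gcd j with hd
    have hd1 : d ∣ 2 * m := Nat.gcd_dvd_left _ _
    have hd2 : d ∣ j := Nat.gcd_dvd_right _ _
    have hd3 : d ∣ 2 := by
      have h6 : d ∣ 2 ^ (k + 3) := by
        rw [hk] at hd1
        have : 2 * 2 ^ (k + 2) = 2 ^ (k + 3) := by ring
        rwa [this] at hd1
      obtain ⟨i, hi, hdi⟩ := (Nat.dvd_prime_pow Nat.prime_two).1 h6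
      rw [hdi] at hd2 ⊢
      by_cases hi2 : 2 ≤ i
      · exfalso
        apply h4
        exact (pow_dvd_pow 2 hi2).trans hd2
      · have : i ≤ 1 := by omega
        have := pow_dvd_pow 2 this
        simpa using this
    obtain ⟨e, he⟩ := hd3
    have hdpos : 0 < d := Nat.pos_of_dvd_of_pos hd1 (by omega)
    refine ⟨e, ?_⟩
    apply Nat.div_eq_of_eq_mul_left hdpos
    calc 2 * m = d * e * m := by rw [← he]
      _ = m * e * d := by ring
  · -- inversion
    have hxN : x ∈ NN a := h.T_le_N h.hxS
    have hxinv : x⁻¹ ∈ NN a := Subgroup.inv_mem _ hxN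
    let φ : CC a →* CC a :=
      ((MulAut.conj x⁻¹).toMonoidHom.comp (CC a).subtype).codRestrict (CC a) (fun c => by
        have := conj_mem_C hxinv c.2
        simpa using this)
    have hφ : ∀ c : CC a, ((φ c : CC a) : G) = x⁻¹ * c * x := by
      intro c
      simp [φ]
    have hE : ⊤ ≤ MonoidHom.eqLocus (lam.comp φ) (lam⁻¹) := by
      have h1 : K.subgroupOf (CC a) ⊔ (zpowers a).subgroupOf (CC a) = ⊤ := by
        have hKC : K ≤ CC a := fun y hy => ((hK y).1 hy).1
        rw [← Subgroup.subgroupOf_sup hKC (zpowers_le_C a), hsup, Subgroup.subgroupOf_self]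
      rw [← h1]
      apply sup_le
      · intro c hc
        rw [Subgroup.mem_subgroupOf] at hc
        have hc2 := (hK c).1 hc
        have h3 : ((φ c : CC a) : G) ∈ K := by
          rw [hK, hφ]
          refine ⟨(φ c).2 |> fun p => by simpa [hφ] using p, ?_⟩
          have h4 : orderOf (x⁻¹ * (c : G) * x) = orderOf (c : G) := by
            have := orderOf_injective (MulAut.conj x⁻¹).toMonoidHom (MulEquiv.injective _) (c : G)
            simpa using this
          rw [h4]
          exact hc2.2
        change lam (φ c) = (lam c)⁻¹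
        rw [hlamK _ h3, hlamK _ hc, inv_one]
      · intro c hc
        rw [Subgroup.mem_subgroupOf] at hc
        obtain ⟨i, hi⟩ := mem_zpowers_iff.mp hc
        have h5 : c = (⟨a, a_mem_C a⟩ : CC a) ^ i := Subtype.ext (by simpa using hi.symm)
        rw [h5]
        apply Subgroup.zpow_mem
        change lam (φ _) = (lam _)⁻¹
        have h6 : φ (⟨a, a_mem_C a⟩ : CC a) = (⟨a, a_mem_C a⟩ : CC a)⁻¹ := by
          apply Subtype.ext
          rw [hφ]
          have h7 : x * a * x⁻¹ = a⁻¹ := h.hxa
          have h8 : x⁻¹ * a * x = a⁻¹ := by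
            have h9 : x * x = a ^ m := by rw [← pow_two, h.hx2]
            have hc : Commute (a ^ m) a⁻¹ := ((Commute.refl a).pow_left m).inv_right
            calc x⁻¹ * a * x = (x * x)⁻¹ * (x * a * x⁻¹) * (x * x) := by group
              _ = (a ^ m)⁻¹ * a⁻¹ * a ^ m := by rw [h9, h7]
              _ = (a ^ m)⁻¹ * (a ^ m * a⁻¹) := by rw [mul_assoc, hc.eq]
              _ = a⁻¹ := by group
          simpa using h8
        rw [h6, map_inv]
    intro y y' hy
    have h2 : y ∈ MonoidHom.eqLocus (lam.comp φ) (lam⁻¹) := hE (Subgroup.mem_top y)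
    have h3 : y' = φ y := Subtype.ext (by rw [hy, hφ])
    rw [h3]
    exact h2
  · rw [hla, ← pow_mul, mul_comm, pow_mul, unitI_sq]
    exact hn.neg_one_pow

end QData

end Finite

section Fintype

variable [Fintype G] {T : Sylow 2 G} {a x : G} {m : ℕ}

/-- The class function `1 - λ`. -/
noncomputable def beta (lam : CC a →* ℂˣ) : CC a → ℂ := fun c => 1 - (lam c : ℂ)

/-- The class function `1 - λ⁻¹`. -/
noncomputable def beta' (lam : CC a →* ℂˣ) : CC a → ℂ := fun c => 1 - (((lam c)⁻¹ : ℂˣ) : ℂ)

namespace QData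

theorem term_not_N (h : QData (T : Subgroup G) a x m) {lam : CC a →* ℂˣ}
    (hA : ∀ c : CC a, lam c ≠ 1 → m ∣ orderOf (c : G)) {s y : G} (hy : y ∈ CC a) (hs : s ∉ NN a) :
    extendByZero (CC a) (beta lam) (s⁻¹ * y * s) = 0 := by
  by_cases hc : s⁻¹ * y * s ∈ CC a
  · rw [extendByZero_of_mem _ _ hc]
    by_cases hl : lam ⟨_, hc⟩ = 1
    · simp [beta, hl]
    · exfalso
      have hd := hA _ hl
      exact hs (h.mem_N_of_conj hc hd (by simpa [mul_assoc] using hy))
  · exact extendByZero_of_not_mem _ _ hc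

theorem x_not_mem_C (h : QData (T : Subgroup G) a x m) : x ∉ CC a := by
  intro hx
  have h1 := mem_centralizer_zpowers_iff.mp hx
  have hmem : a ^ 2 ∈ zpowers a := Subgroup.pow_mem _ (mem_zpowers _) _
  have h2 := h.conj_mem_zpowers hmem
  rw [h1] at h2
  exact h.a_sq_ne_inv h2

theorem card_N (h : QData (T : Subgroup G) a x m) : Nat.card (NN a) = 2 * Nat.card (CC a) := by
  have h1 := Subgroup.card_mul_index ((CC a).subgroupOf (NN a))
  have h2 : Nat.card ((CC a).subgroupOf (NN a)) = Nat.card (CC a) :=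
    Nat.card_congr (Subgroup.subgroupOfEquivOfLe (C_le_N a)).toEquiv
  rw [h2, h.index_two] at h1
  rw [← h1]
  ring

/-- The induced function on `C(D)`. -/
theorem ind_apply (h : QData (T : Subgroup G) a x m) {lam : CC a →* ℂˣ}
    (hA : ∀ c : CC a, lam c ≠ 1 → m ∣ orderOf (c : G))
    (hB : ∀ y y' : CC a, (y' : G) = x⁻¹ * y * x → lam y' = (lam y)⁻¹) (y : CC a) :
    indFun (CC a) (beta lam) y = beta lam y + beta' lam y := by
  classical
  rw [indFun_apply]
  have key : ∀ s : G, extendByZero (CC a) (beta lam) (s⁻¹ * (y : G) * s) =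
      (if s ∈ CC a then beta lam y else 0) + (if s ∈ NN a ∧ s ∉ CC a then beta' lam y else 0) := by
    intro s
    by_cases hsC : s ∈ CC a
    · have hs' : s⁻¹ * (y : G) * s ∈ CC a :=
        (CC a).mul_mem ((CC a).mul_mem ((CC a).inv_mem hsC) y.2) hsC
      rw [extendByZero_of_mem _ _ hs', if_pos hsC, if_neg (fun p => p.2 hsC), add_zero]
      have h1 : (⟨_, hs'⟩ : CC a) = (⟨s, hsC⟩ : CC a)⁻¹ * y * ⟨s, hsC⟩ := Subtype.ext (by simp)
      rw [h1]
      simp only [beta, map_mul, map_inv]
      congr 2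
      simp
    · by_cases hsN : s ∈ NN a
      · have hx : x ∈ NN a := h.T_le_N h.hxS
        -- `x⁻¹ * s ∈ C`
        have hc : x⁻¹ * s ∈ CC a := by
          have h2 := (Subgroup.mul_mem_iff_of_index_two h.index_two
            (a := (⟨x, hx⟩ : NN a)⁻¹) (b := ⟨s, hsN⟩)).2 (by
              simp only [Subgroup.mem_subgroupOf, Subgroup.coe_inv]
              constructor
              · intro h3
                exact absurd ((CC a).inv_mem_iff.1 h3) h.x_not_mem_C
              · intro h3
                exact absurd h3 hsC)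
          exact Subgroup.mem_subgroupOf.1 h2
        have h4 : s⁻¹ * (y : G) * s = (x⁻¹ * s)⁻¹ * (x⁻¹ * y * x) * (x⁻¹ * s) := by group
        have hy' : x⁻¹ * (y : G) * x ∈ CC a := by
          have := conj_mem_C (Subgroup.inv_mem _ hx) y.2
          simpa using this
        have hs' : s⁻¹ * (y : G) * s ∈ CC a := by
          rw [h4]
          exact (CC a).mul_mem ((CC a).mul_mem ((CC a).inv_mem hc) hy') hc
        rw [extendByZero_of_mem _ _ hs', if_neg hsC, if_pos ⟨hsN, hsC⟩, zero_add]
        have h1 : (⟨_, hs'⟩ : CC a) = (⟨_, hc⟩ : CC a)⁻¹ * ⟨_, hy'⟩ * ⟨_, hc⟩ := Subtype.ext (by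
          simp only [Subgroup.coe_mul, Subgroup.coe_inv]
          exact h4)
        rw [h1]
        simp only [beta, beta', map_mul, map_inv]
        rw [hB y ⟨_, hy'⟩ rfl]
        congr 2
        simp
      · rw [h.term_not_N hA y.2 hsN, if_neg hsC, if_neg (fun p => hsN p.1), add_zero]
  simp_rw [key]
  rw [Finset.sum_add_distrib, Finset.sum_ite, Finset.sum_ite, Finset.sum_const_zero, Finset.sum_const_zero,
    add_zero, add_zero, Finset.sum_const, Finset.sum_const]
  have hc1 : (Finset.univ.filter (fun s : G => s ∈ CC a)).card = Nat.card (CC a) := by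
    rw [Nat.card_eq_fintype_card, ← Fintype.card_subtype]
  have hc2 : (Finset.univ.filter (fun s : G => s ∈ NN a)).card = Nat.card (NN a) := by
    rw [Nat.card_eq_fintype_card, ← Fintype.card_subtype]
  have hc3 : (Finset.univ.filter (fun s : G => s ∈ NN a ∧ s ∉ CC a)).card = Nat.card (CC a) := by
    have h5 : Finset.univ.filter (fun s : G => s ∈ NN a ∧ s ∉ CC a) =
        Finset.univ.filter (fun s : G => s ∈ NN a) \ Finset.univ.filter (fun s : G => s ∈ CC a) := by
      ext s
      simp
    rw [h5, Finset.card_sdiff_of_subset (by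
      intro s hs
      simp only [Finset.mem_filter, Finset.mem_univ, true_and] at hs ⊢
      exact C_le_N a hs), hc1, hc2, h.card_N]
    omega
  rw [hc1, hc3, nsmul_eq_mul, nsmul_eq_mul, ← mul_add, ← mul_assoc, inv_mul_cancel₀ (card_subgroup_ne_zero _), one_mul]

theorem ind_eq_zero (h : QData (T : Subgroup G) a x m) {lam : CC a →* ℂˣ}
    (hA : ∀ c : CC a, lam c ≠ 1 → m ∣ orderOf (c : G)) {g : G} (hg : ¬ 4 ∣ orderOf g) :
    indFun (CC a) (beta lam) g = 0 := by
  rw [indFun_apply]
  apply mul_eq_zero_of_right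
  apply Finset.sum_eq_zero
  intro s _
  by_cases hc : s⁻¹ * g * s ∈ CC a
  · rw [extendByZero_of_mem _ _ hc]
    by_cases hl : lam ⟨_, hc⟩ = 1
    · simp [beta, hl]
    · exfalso
      have hd := hA _ hl
      have h2 : orderOf (s⁻¹ * g * s) = orderOf g := by
        have := orderOf_injective (MulAut.conj s⁻¹).toMonoidHom (MulEquiv.injective _) g
        simpa using this
      rw [h2] at hd
      exact hg (h.four_dvd.trans hd)
  · exact extendByZero_of_not_mem _ _ hc

/-- The exceptional characters. -/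
theorem exists_chars (h : QData (T : Subgroup G) a x m) :
    ∃ χ₁ χ₂ : IrrCharacter G, (χ₁ : G → ℂ) ≠ (fun _ => 1) ∧ (χ₂ : G → ℂ) ≠ (fun _ => 1) ∧
      (χ₁ : G → ℂ) 1 = (χ₂ : G → ℂ) 1 + 1 ∧ (∀ g : G, ¬ 4 ∣ orderOf g → (χ₁ : G → ℂ) g - (χ₂ : G → ℂ) g = 1) ∧
      (χ₂ : G → ℂ) (a ^ 2) - (χ₁ : G → ℂ) (a ^ 2) = 3 := by
  classical
  obtain ⟨lam, hA, hB, hsq⟩ := h.exists_lambda
  haveI : Fintype (CC a) := Fintype.ofFinite _
  let c₀ : CC a := ⟨a, a_mem_C a⟩
  have hlne : lam c₀ ≠ 1 := by
    intro h1
    rw [h1, one_pow] at hsq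
    exact neg_one_unit_ne_one hsq.symm
  have hlne' : lam c₀ ≠ (lam c₀)⁻¹ := by
    intro h1
    have h2 : (lam c₀) ^ 2 = 1 := by
      rw [pow_two]
      nth_rewrite 2 [h1]
      simp
    rw [h2] at hsq
    exact neg_one_unit_ne_one hsq.symm
  let e : CC a → ℂ := fun _ => 1
  let l : CC a → ℂ := fun c => (lam c : ℂ)
  let l' : CC a → ℂ := fun c => (((lam c)⁻¹ : ℂˣ) : ℂ)
  have he : IsIrrCharacter (CC a) e := by
    have := isIrrCharacter_of_hom (1 : CC a →* ℂˣ)
    simpa using this
  have hl : IsIrrCharacter (CC a) l := isIrrCharacter_of_hom lam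
  have hl' : IsIrrCharacter (CC a) l' := isIrrCharacter_of_hom (lam⁻¹)
  have hel : e ≠ l := by
    intro h1
    have h2 := congrFun h1 c₀
    apply hlne
    apply Units.ext
    simpa [e, l] using h2.symm
  have hel' : e ≠ l' := by
    intro h1
    have h2 := congrFun h1 c₀
    apply hlne
    apply inv_eq_one.mp
    apply Units.ext
    simpa [e, l'] using h2.symm
  have hll' : l ≠ l' := by
    intro h1
    have h2 := congrFun h1 c₀
    apply hlne'
    apply Units.ext
    simpa [l, l'] using h2
  have hbe : beta lam = e - l := by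
    funext c
    simp [beta, e, l]
  have hbe' : beta' lam = e - l' := by
    funext c
    simp [beta', e, l']
  let Ah : G → ℂ := indFun (CC a) (beta lam)
  have hAhc : IsClassFunction G Ah := indFun_isClassFunction _ _
  have hAhg : IsGeneralizedCharacter G Ah := by
    apply indFun_isGeneralized
    rw [hbe]
    exact IsGeneralizedCharacter.sub (IsGeneralizedCharacter.of_isCharacter (IsIrrCharacter.isCharacter he))
      (IsGeneralizedCharacter.of_isCharacter (IsIrrCharacter.isCharacter hl))
  let one' : G → ℂ := fun _ => 1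
  have hone : IsIrrCharacter G one' := by
    have := isIrrCharacter_of_hom (1 : G →* ℂˣ)
    simpa using this
  have hone_class : IsClassFunction G one' := fun _ _ => rfl
  have h1 : classInner Ah one' = 1 := by
    rw [frobenius_reciprocity _ _ _ hone_class]
    change classInner (beta lam) e = 1
    rw [hbe, classInner_sub_left, classInner_irr_self he, classInner_irr_of_ne hl he (Ne.symm hel), sub_zero]
  have h2 : classInner Ah Ah = 3 := by
    rw [frobenius_reciprocity _ _ _ hAhc]
    have h3 : (fun c : CC a => Ah c) = beta lam + beta' lam := by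
      funext c
      exact h.ind_apply hA hB c
    rw [h3, hbe, hbe', classInner_add_right, classInner_sub_left, classInner_sub_left, classInner_sub_right,
      classInner_sub_right, classInner_sub_right, classInner_sub_right,
      classInner_irr_self he, classInner_irr_self hl,
      classInner_irr_of_ne he hl hel, classInner_irr_of_ne hl he (Ne.symm hel),
      classInner_irr_of_ne he hl' hel', classInner_irr_of_ne hl hl' hll']
    norm_num
  have h1' : classInner one' Ah = 1 := by
    rw [← conj_classInner, h1]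
    simp
  have hgen : IsGeneralizedCharacter G (Ah - one') :=
    IsGeneralizedCharacter.sub hAhg (IsGeneralizedCharacter.of_isCharacter (IsIrrCharacter.isCharacter hone))
  have hnorm : classInner (Ah - one') (Ah - one') = 2 := by
    rw [classInner_sub_left, classInner_sub_right, classInner_sub_right, h1, h2, h1', classInner_irr_self hone]
    norm_num
  obtain ⟨a0, b0, s, t, hab, hs, ht, hAe⟩ := Cfsg.Agent.Lib.KS2.RK.norm_two_gen hgen hnorm
  have hval : ∀ g, Ah g - 1 = (s : ℂ) * (a0 : G → ℂ) g + (t : ℂ) * (b0 : G → ℂ) g := by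
    intro g
    have := congrFun hAe g
    simpa [one'] using this
  have hAh1 : Ah 1 = 0 := by
    have h3 := h.ind_apply hA hB 1
    simp only [beta, beta', map_one, inv_one, Units.val_one, sub_self, add_zero] at h3
    simpa using h3
  have hinner : classInner (Ah - one') one' = 0 := by
    rw [classInner_sub_left, h1, classInner_irr_self hone, sub_self]
  rw [hAe, classInner_add_left, classInner_smul_left, classInner_smul_left] at hinner
  have habfun : (a0 : G → ℂ) ≠ (b0 : G → ℂ) := fun e1 => hab (Subtype.ext e1)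
  have hs0 : (s : ℂ) ≠ 0 := by
    rcases hs with rfl | rfl <;> norm_num
  have ht0 : (t : ℂ) ≠ 0 := by
    rcases ht with rfl | rfl <;> norm_num
  have ha1 : (a0 : G → ℂ) ≠ one' := by
    intro e1
    rw [e1, classInner_irr_self hone, classInner_irr_of_ne b0.2 hone (by
      rw [← e1]
      exact habfun.symm)] at hinner
    simp at hinner
    exact hs0 (by exact_mod_cast hinner)
  have hb1 : (b0 : G → ℂ) ≠ one' := by
    intro e1
    rw [e1, classInner_irr_self hone, classInner_irr_of_ne a0.2 hone (by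
      rw [← e1]
      exact habfun)] at hinner
    simp at hinner
    exact ht0 (by exact_mod_cast hinner)
  have hdega : (a0 : G → ℂ) 1 = (charDegree (a0 : G → ℂ) : ℂ) := map_one_eq_charDegree (IsIrrCharacter.isCharacter a0.2)
  have hdegb : (b0 : G → ℂ) 1 = (charDegree (b0 : G → ℂ) : ℂ) := map_one_eq_charDegree (IsIrrCharacter.isCharacter b0.2)
  have hposa := charDegree_pos_of_irr a0.2
  have hposb := charDegree_pos_of_irr b0.2
  have hv1 := hval 1
  rw [hAh1, hdega, hdegb] at hv1
  have hval2 : ∀ g, Ah g = 0 → ∀ χ₁ χ₂ : G → ℂ, True := fun _ _ _ _ => trivial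
  have hind0 : ∀ g : G, ¬ 4 ∣ orderOf g → Ah g = 0 := fun g hg => h.ind_eq_zero hA hg
  have hAa2 : Ah (a ^ 2) = 4 := by
    have hmem : a ^ 2 ∈ CC a := Subgroup.pow_mem _ (a_mem_C a) 2
    have h3 := h.ind_apply hA hB ⟨a ^ 2, hmem⟩
    have h4 : (⟨a ^ 2, hmem⟩ : CC a) = c₀ ^ 2 := Subtype.ext (by simp [c₀])
    have hlc : lam (c₀ ^ 2) = -1 := by
      rw [map_pow]
      exact hsq
    rw [h4] at h3
    have h5 : Ah (a ^ 2) = indFun (CC a) (beta lam) ((c₀ ^ 2 : CC a) : G) := by
      simp [Ah, c₀]
    rw [h5, h3]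
    simp only [beta, beta', hlc]
    simp
    norm_num
  rcases hs with rfl | rfl <;> rcases ht with rfl | rfl
  · exfalso
    have : ((charDegree (a0 : G → ℂ) : ℤ) + (charDegree (b0 : G → ℂ) : ℤ) : ℤ) = -1 := by
      have h6 : (((charDegree (a0 : G → ℂ) : ℤ) + (charDegree (b0 : G → ℂ) : ℤ) : ℤ) : ℂ) = ((-1 : ℤ) : ℂ) := by
        push_cast
        push_cast at hv1
        linear_combination -hv1
      exact_mod_cast h6
    omega
  · refine ⟨b0, a0, hb1, ha1, ?_, ?_, ?_⟩
    · rw [hdega, hdegb]
      push_cast at hv1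
      linear_combination hv1
    · intro g hg
      have h7 := hval g
      rw [hind0 g hg] at h7
      push_cast at h7
      linear_combination h7
    · have h7 := hval (a ^ 2)
      rw [hAa2] at h7
      push_cast at h7
      linear_combination -h7
  · refine ⟨a0, b0, ha1, hb1, ?_, ?_, ?_⟩
    · rw [hdega, hdegb]
      push_cast at hv1
      linear_combination hv1
    · intro g hg
      have h7 := hval g
      rw [hind0 g hg] at h7
      push_cast at h7
      linear_combination h7
    · have h7 := hval (a ^ 2)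
      rw [hAa2] at h7
      push_cast at h7
      linear_combination -h7
  · exfalso
    have : ((charDegree (a0 : G → ℂ) : ℤ) + (charDegree (b0 : G → ℂ) : ℤ) : ℤ) = 1 := by
      have h6 : (((charDegree (a0 : G → ℂ) : ℤ) + (charDegree (b0 : G → ℂ) : ℤ) : ℤ) : ℂ) = ((1 : ℤ) : ℂ) := by
        push_cast
        push_cast at hv1
        linear_combination hv1
      exact_mod_cast h6
    omega

end QData

end Fintype

end Cfsg.Agent.Lib.BS
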