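import Cfsg.Agent.Lib.BS.Basic
import Cfsg.Agent.Lib.Fusion.SylowIn
import Mathlib

/-!
# Generalized quaternion Sylow 2-subgroups: the local structure around `D = S'`.  Owner: helper20.
-/

set_option autoImplicit false
set_option linter.unusedSectionVars false
set_option linter.unusedVariables false

namespace Cfsg.Agent.Lib.BS

open Subgroup
open scoped commutatorElement

variable {G : Type*} [Group G]

variable {S : Subgroup G} {a x : G} {m : ℕ}

namespace QData

theorem mul_zpow_eq (h : QData S a x m) (i : ℤ) : x * a ^ i = a ^ (-i) * x := by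
  rw [← h.conj_zpow i]
  group

theorem commutator_x_x (h : QData S a x m) (i j : ℤ) :
    ⁅x * a ^ i, x * a ^ j⁆ = a ^ (2 * (j - i)) := by
  have h1 : (x * a ^ i) * (x * a ^ j) * (x * a ^ i)⁻¹ = x * a ^ (2 * i - j) := by
    have h2 : x * a ^ (j - i) * x⁻¹ = a ^ (i - j) := by
      rw [h.conj_zpow]
      congr 1
      ring
    calc (x * a ^ i) * (x * a ^ j) * (x * a ^ i)⁻¹
        = x * a ^ i * (x * (a ^ j * (a ^ i)⁻¹) * x⁻¹) := by group
      _ = x * a ^ i * (x * a ^ (j - i) * x⁻¹) := by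
          congr 3
          rw [zpow_sub]
      _ = x * a ^ i * a ^ (i - j) := by rw [h2]
      _ = x * a ^ (2 * i - j) := by
          rw [mul_assoc, ← zpow_add]
          congr 2
          ring
  rw [commutatorElement_def, h1]
  have h3 : x * a ^ (2 * i - j) * (x * a ^ j)⁻¹ = x * a ^ (2 * i - 2 * j) * x⁻¹ := by
    have : a ^ (2 * i - 2 * j) = a ^ (2 * i - j) * (a ^ j)⁻¹ := by
      rw [← zpow_neg, ← zpow_add]
      congr 1
      ring
    rw [this]
    group
  rw [h3, h.conj_zpow]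
  congr 1
  ring

theorem commutator_a_x (h : QData S a x m) (i j : ℤ) :
    ⁅a ^ i, x * a ^ j⁆ = a ^ (2 * i) := by
  have h1 : a ^ i * (x * a ^ j) * (a ^ i)⁻¹ * (x * a ^ j)⁻¹ = a ^ i * (x * (a ^ i)⁻¹ * x⁻¹) := by
    have h2 : a ^ j * (a ^ i)⁻¹ * (a ^ j)⁻¹ = (a ^ i)⁻¹ := by
      have : (a ^ j * (a ^ i)⁻¹) = (a ^ i)⁻¹ * a ^ j := by
        rw [← zpow_neg, ← zpow_add, ← zpow_add]
        congr 1
        ring
      rw [this]
      group
    calc a ^ i * (x * a ^ j) * (a ^ i)⁻¹ * (x * a ^ j)⁻¹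
        = a ^ i * (x * (a ^ j * (a ^ i)⁻¹ * (a ^ j)⁻¹) * x⁻¹) := by group
      _ = _ := by rw [h2]
  rw [commutatorElement_def, h1, ← zpow_neg, h.conj_zpow, ← zpow_add]
  congr 1
  ring

/-- Elements of `S`. -/
theorem exists_form (h : QData S a x m) {s : G} (hs : s ∈ S) :
    (∃ i : ℤ, s = a ^ i) ∨ (∃ i : ℤ, s = x * a ^ i) := by
  rcases h.hS s hs with h1 | ⟨b, hb, rfl⟩
  · left
    obtain ⟨i, rfl⟩ := mem_zpowers_iff.mp h1
    exact ⟨i, rfl⟩
  · right
    obtain ⟨i, rfl⟩ := mem_zpowers_iff.mp hb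
    exact ⟨i, rfl⟩

theorem sq_mem (i : ℤ) : a ^ (2 * i) ∈ zpowers (a ^ 2) := by
  refine mem_zpowers_iff.mpr ⟨i, ?_⟩
  rw [← zpow_natCast, ← zpow_mul]
  norm_num

theorem zpowers_le (h : QData S a x m) : zpowers a ≤ S := by
  rw [Subgroup.zpowers_le]
  exact h.haS

/-- The commutator subgroup of `S`. -/
theorem commutator_eq (h : QData S a x m) : ⁅S, S⁆ = zpowers (a ^ 2) := by
  apply le_antisymm
  · rw [Subgroup.commutator_le]
    intro p hp q hq
    rcases h.exists_form hp with ⟨i, rfl⟩ | ⟨i, rfl⟩ <;> rcases h.exists_form hq with ⟨j, rfl⟩ | ⟨j, rfl⟩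
    · have : ⁅a ^ i, a ^ j⁆ = 1 := by
        rw [commutatorElement_eq_one_iff_mul_comm]
        exact (Commute.refl a).zpow_zpow i j
      rw [this]
      exact Subgroup.one_mem _
    · rw [h.commutator_a_x]
      exact sq_mem i
    · rw [← commutatorElement_inv, h.commutator_a_x]
      exact Subgroup.inv_mem _ (sq_mem j)
    · rw [h.commutator_x_x]
      exact sq_mem _
  · rw [Subgroup.zpowers_le]
    have h1 := Subgroup.commutator_mem_commutator h.haS h.hxS
    have h2 : ⁅a, x⁆ = a ^ 2 := by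
      have := h.commutator_a_x 1 0
      simpa using this
    rwa [h2] at h1

theorem orderOf_sq (h : QData S a x m) : orderOf (a ^ 2) = m := by
  rw [orderOf_pow' a (by norm_num : (2:ℕ) ≠ 0), h.ha]
  obtain ⟨k, rfl⟩ := h.hm
  have : (2 * 2 ^ (k + 2)).gcd 2 = 2 := by simp
  rw [this]
  simp

theorem card_D (h : QData S a x m) : Nat.card (zpowers (a ^ 2)) = m := by
  rw [Nat.card_zpowers, h.orderOf_sq]

end QData

/-- For `b` of finite order, conjugating `b` into `⟨b⟩` normalizes `⟨b⟩`. -/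
theorem mem_normalizer_zpowers [Finite G] {b g : G} (hg : g * b * g⁻¹ ∈ zpowers b) :
    g ∈ normalizer (zpowers b : Set G) := by
  have hle : (zpowers b).map (MulAut.conj g).toMonoidHom ≤ zpowers b := by
    rw [MonoidHom.map_zpowers, Subgroup.zpowers_le]
    simpa using hg
  have heq : (zpowers b).map (MulAut.conj g).toMonoidHom = zpowers b :=
    Subgroup.eq_of_le_of_card_ge hle (by
      rw [Subgroup.card_map_of_injective (MulEquiv.injective _)])
  rw [Subgroup.mem_normalizer_iff]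
  intro h
  constructor
  · intro hh
    rw [← heq]
    exact ⟨h, hh, by simp⟩
  · intro hh
    rw [← heq] at hh
    obtain ⟨y, hy, he⟩ := hh
    have : y = h := by
      simpa using he
    rwa [← this]

theorem mem_centralizer_zpowers_iff {b y : G} :
    y ∈ centralizer (zpowers b : Set G) ↔ y * b * y⁻¹ = b := by
  rw [Subgroup.mem_centralizer_iff]
  constructor
  · intro h1
    have := h1 b (mem_zpowers b)
    rw [← this]
    group
  · intro h1 h hh
    obtain ⟨i, rfl⟩ := mem_zpowers_iff.mp hh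
    have h2 : Commute y b := by
      rw [commute_iff_eq, ← mul_inv_eq_iff_eq_mul]
      exact h1
    exact ((h2.zpow_right i).eq).symm

/-- In a finite cyclic group the elements of exponent `p` are the powers of an element of order `p`. -/
theorem mem_zpowers_of_pow_eq_one' {T : Type*} [Group T] [Finite T] [IsCyclic T] {p : ℕ} (hp : 0 < p)
    {w u : T} (hw : orderOf w = p) (hu : u ^ p = 1) : u ∈ zpowers w := by
  classical
  haveI : Fintype T := Fintype.ofFinite T
  have h1 := IsCyclic.card_pow_eq_one_le (α := T) hp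
  let Z : Finset T := (zpowers w : Set T).toFinset
  have hZ : Z.card = p := by
    rw [← hw, ← Nat.card_zpowers, Nat.card_eq_fintype_card]
    exact Set.toFinset_card _
  have hsub : Z ⊆ Finset.univ.filter (fun a : T => a ^ p = 1) := by
    intro x hx
    rw [Set.mem_toFinset] at hx
    obtain ⟨k, rfl⟩ := Subgroup.mem_zpowers_iff.mp hx
    rw [Finset.mem_filter]
    refine ⟨Finset.mem_univ _, ?_⟩
    rw [← zpow_natCast, ← zpow_mul, mul_comm, zpow_mul, zpow_natCast, ← hw, pow_orderOf_eq_one, one_zpow]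
  have heq : Z = Finset.univ.filter (fun a : T => a ^ p = 1) :=
    Finset.eq_of_subset_of_card_le hsub (by rw [hZ]; exact h1)
  have hu2 : u ∈ Z := by
    rw [heq, Finset.mem_filter]
    exact ⟨Finset.mem_univ _, hu⟩
  rwa [Set.mem_toFinset] at hu2

section Sylow

variable [Finite G] {T : Sylow 2 G}

/-- `C(D)`. -/
abbrev CC (a : G) : Subgroup G := centralizer (zpowers (a ^ 2) : Set G)

/-- `N(D)`. -/
abbrev NN (a : G) : Subgroup G := normalizer (zpowers (a ^ 2) : Set G)

namespace QData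

theorem T_le_N (h : QData (T : Subgroup G) a x m) : (T : Subgroup G) ≤ NN a := by
  intro s hs
  apply mem_normalizer_zpowers
  rcases h.conj_sq_of_mem hs with ⟨-, h1⟩ | ⟨-, h1⟩
  · rw [h1]
    exact mem_zpowers _
  · rw [h1]
    exact Subgroup.inv_mem _ (mem_zpowers _)

theorem C_le_N (a : G) : CC a ≤ NN a := by
  intro s hs
  apply mem_normalizer_zpowers
  rw [mem_centralizer_zpowers_iff.mp hs]
  exact mem_zpowers _

theorem normal_C (a : G) : ((CC a).subgroupOf (NN a)).Normal := by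
  rw [← normalizerMonoidHom_ker]
  exact MonoidHom.normal_ker _

theorem conj_mem_C {s y : G} (hs : s ∈ NN a) (hy : y ∈ CC a) : s * y * s⁻¹ ∈ CC a := by
  have h1 := (normal_C a).conj_mem ⟨y, C_le_N a hy⟩ (Subgroup.mem_subgroupOf.2 hy) ⟨s, hs⟩
  exact Subgroup.mem_subgroupOf.1 h1

theorem conj_mem_C_iff {s y : G} (hs : s ∈ NN a) : s * y * s⁻¹ ∈ CC a ↔ y ∈ CC a := by
  refine ⟨fun h1 => ?_, conj_mem_C hs⟩
  have h2 := conj_mem_C (Subgroup.inv_mem _ hs) h1
  simpa [mul_assoc] using h2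

theorem a_mem_C (a : G) : a ∈ CC a := by
  rw [mem_centralizer_zpowers_iff, pow_two]
  group

theorem zpowers_le_C (a : G) : zpowers a ≤ CC a := by
  rw [Subgroup.zpowers_le]
  exact a_mem_C a

theorem inf_C (h : QData (T : Subgroup G) a x m) : (T : Subgroup G) ⊓ CC a = zpowers a := by
  apply le_antisymm
  · rintro s ⟨hs, hc⟩
    rcases h.conj_sq_of_mem hs with ⟨h1, -⟩ | ⟨-, h1⟩
    · exact h1
    · exfalso
      rw [mem_centralizer_zpowers_iff.mp hc] at h1
      exact h.a_sq_ne_inv h1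
  · exact le_inf h.zpowers_le (zpowers_le_C a)

theorem exists_sylow_C (h : QData (T : Subgroup G) a x m) :
    ∃ Q : Sylow 2 (CC a), (Q : Subgroup (CC a)) = (zpowers a).subgroupOf (CC a) := by
  have h1 : Lib.Fusion.IsSylowIn 2 (T : Subgroup G) (NN a) :=
    ⟨T.subtype h.T_le_N, Sylow.coe_subtype _ _⟩
  have h2 := Lib.Fusion.IsSylowIn.inf_normal h1 h.T_le_N (C_le_N a) (normal_C a)
  rwa [h.inf_C] at h2

/-- The retraction of `C(D)` on `⟨a⟩` (Burnside). -/
theorem exists_retr (h : QData (T : Subgroup G) a x m) :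
    ∃ (r : CC a →* G) (n : ℕ), Odd n ∧ (∀ c, r c ∈ zpowers a) ∧ r ⟨a, a_mem_C a⟩ = a ^ n ∧
      ¬ 2 ∣ Nat.card r.ker ∧ r.ker.IsComplement' ((zpowers a).subgroupOf (CC a)) := by
  obtain ⟨Q, hQ⟩ := h.exists_sylow_C
  have hcyc : IsCyclic (Q : Subgroup (CC a)) := by
    rw [hQ]
    have h1 : (zpowers a).subgroupOf (CC a) = zpowers (⟨a, a_mem_C a⟩ : CC a) := by
      ext y
      rw [Subgroup.mem_subgroupOf]
      constructor
      · intro hy
        obtain ⟨i, hi⟩ := mem_zpowers_iff.mp hy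
        refine mem_zpowers_iff.mpr ⟨i, Subtype.ext ?_⟩
        simpa using hi
      · intro hy
        obtain ⟨i, rfl⟩ := mem_zpowers_iff.mp hy
        simp
    rw [h1]
    infer_instance
  have hmin : (Nat.card (CC a)).minFac = 2 := by
    rw [Nat.minFac_eq_two_iff]
    have h1 : orderOf (⟨a, a_mem_C a⟩ : CC a) ∣ Nat.card (CC a) := orderOf_dvd_natCard _
    rw [Subgroup.orderOf_mk, h.ha] at h1
    exact (Dvd.intro _ rfl).trans h1
  have hN := IsCyclic.normalizer_le_centralizer hmin hcyc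
  have hcompl := MonoidHom.ker_transferSylow_isComplement' Q hN
  have hmem : ∀ c : CC a, (((MonoidHom.transferSylow Q hN c : Q) : CC a) : G) ∈ zpowers a := by
    intro c
    have h1 : ((MonoidHom.transferSylow Q hN c : Q) : CC a) ∈ (Q : Subgroup (CC a)) := Subtype.property _
    have h2 : ∀ y : CC a, y ∈ (Q : Subgroup (CC a)) → (y : G) ∈ zpowers a := by
      intro y hy
      rw [hQ, Subgroup.mem_subgroupOf] at hy
      exact hy
    exact h2 _ h1
  let r : CC a →* G := (CC a).subtype.comp ((Q : Subgroup (CC a)).subtype.comp (MonoidHom.transferSylow Q hN))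
  have hker : r.ker = (MonoidHom.transferSylow Q hN).ker := by
    ext c
    simp only [MonoidHom.mem_ker, r, MonoidHom.comp_apply]
    constructor
    · intro h1
      apply Subtype.ext
      apply Subtype.ext
      simpa using h1
    · intro h1
      rw [h1]
      simp
  refine ⟨r, (Q : Subgroup (CC a)).index, ?_, hmem, ?_, ?_, ?_⟩
  · rw [← Nat.not_even_iff_odd, even_iff_two_dvd]
    exact Q.not_dvd_index
  · have hm : (⟨a, a_mem_C a⟩ : CC a) ∈ (Q : Subgroup (CC a)) := by
      rw [hQ, Subgroup.mem_subgroupOf]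
      exact mem_zpowers a
    have h2 := MonoidHom.transferSylow_eq_pow Q hN ⟨a, a_mem_C a⟩ hm
    simp only [r, MonoidHom.comp_apply]
    rw [h2]
    simp
  · rw [hker]
    exact MonoidHom.not_dvd_card_ker_transferSylow Q hN
  · rw [hker, ← hQ]
    exact hcompl

end QData

/-- The odd-order elements of `C(D)`. -/
theorem orderOf_map_eq_one_of_odd (h : QData (T : Subgroup G) a x m) {r : CC a →* G}
    (hr : ∀ c, r c ∈ zpowers a) {c : CC a} (hc : Odd (orderOf (c : G))) : r c = 1 := by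
  have h1 : orderOf (r c) ∣ orderOf c := orderOf_map_dvd r c
  rw [Subgroup.orderOf_coe] at hc
  have h2 : orderOf (r c) ∣ 2 * m := by
    rw [← h.ha]
    exact orderOf_dvd_of_mem_zpowers (hr c)
  obtain ⟨k, hk⟩ := h.hm
  have h3 : orderOf (r c) ∣ 2 ^ (k + 3) := by
    rw [hk] at h2
    rwa [pow_succ', pow_succ, pow_succ, mul_comm _ (2:ℕ), ← pow_succ'] at *
  have hco : Nat.Coprime (orderOf c) (2 ^ (k + 3)) := Nat.Coprime.pow_right _ (Nat.coprime_two_right.mpr hc)
  exact orderOf_eq_one_iff.mp (Nat.eq_one_of_dvd_coprimes hco h1 h3)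

namespace QData

/-- `[N : C]` is a power of two. -/
theorem exists_relIndex (h : QData (T : Subgroup G) a x m) : ∃ b : ℕ, (CC a).relIndex (NN a) = 2 ^ b := by
  obtain ⟨k, hk⟩ := h.hm
  let D : Subgroup G := zpowers (a ^ 2)
  have h1 : (CC a).relIndex (NN a) = Nat.card (D.normalizerMonoidHom).range := by
    rw [Subgroup.relIndex, ← normalizerMonoidHom_ker, Subgroup.index_ker]
  have h2 : Nat.card (D.normalizerMonoidHom).range ∣ Nat.card (MulAut D) := Subgroup.card_subgroup_dvd_card _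
  have h3 : Nat.card (MulAut D) = Nat.totient (Nat.card D) := IsCyclic.card_mulAut D
  have h4 : Nat.card D = 2 ^ (k + 2) := by
    rw [← hk]
    exact h.card_D
  rw [h3, h4, Nat.totient_prime_pow_succ Nat.prime_two] at h2
  have h5 : Nat.card (D.normalizerMonoidHom).range ∣ 2 ^ (k + 1) := by simpa using h2
  obtain ⟨b, -, hb⟩ := (Nat.dvd_prime_pow Nat.prime_two).1 h5
  exact ⟨b, h1.trans hb⟩

theorem sup_eq_N (h : QData (T : Subgroup G) a x m) : CC a ⊔ (T : Subgroup G) = NN a := by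
  apply le_antisymm (sup_le (C_le_N a) h.T_le_N)
  rw [← Subgroup.relIndex_eq_one]
  obtain ⟨b, hb⟩ := h.exists_relIndex
  have h1 : (CC a ⊔ (T : Subgroup G)).relIndex (NN a) ∣ 2 ^ b := by
    rw [← hb]
    exact Subgroup.relIndex_dvd_of_le_left _ le_sup_left
  have h2 : (CC a ⊔ (T : Subgroup G)).relIndex (NN a) ∣ (T : Subgroup G).index :=
    (Subgroup.relIndex_dvd_of_le_left _ le_sup_right).trans
      (Subgroup.relIndex_dvd_index_of_le h.T_le_N)
  have h3 : Nat.Coprime (2 ^ b) (T : Subgroup G).index := by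
    apply Nat.Coprime.pow_left
    rw [Nat.Prime.coprime_iff_not_dvd Nat.prime_two]
    exact T.not_dvd_index
  exact Nat.eq_one_of_dvd_coprimes h3 h1 h2

theorem relIndex_zpowers (h : QData (T : Subgroup G) a x m) : (zpowers a).relIndex (T : Subgroup G) = 2 := by
  have h1 := Subgroup.card_mul_index ((zpowers a).subgroupOf (T : Subgroup G))
  have h2 : Nat.card ((zpowers a).subgroupOf (T : Subgroup G)) = Nat.card (zpowers a) :=
    Nat.card_congr (Subgroup.subgroupOfEquivOfLe h.zpowers_le).toEquiv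
  rw [h2, Nat.card_zpowers, h.ha, h.hcard] at h1
  have hm := h.m_pos
  have h3 : (zpowers a).relIndex (T : Subgroup G) = ((zpowers a).subgroupOf (T : Subgroup G)).index := rfl
  rw [h3]
  have h4 : 2 * m * ((zpowers a).subgroupOf (T : Subgroup G)).index = 2 * m * 2 := by
    rw [h1]
    ring
  exact Nat.eq_of_mul_eq_mul_left (by omega) h4

theorem index_two (h : QData (T : Subgroup G) a x m) : ((CC a).subgroupOf (NN a)).index = 2 := by
  haveI := normal_C a
  have h1 : ((T : Subgroup G).subgroupOf (NN a)) ⊔ (CC a).subgroupOf (NN a) = ⊤ := by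
    rw [← Subgroup.subgroupOf_sup h.T_le_N (C_le_N a), sup_comm, h.sup_eq_N, Subgroup.subgroupOf_self]
  have h2 : ((CC a).subgroupOf (NN a)).index = ((CC a).subgroupOf (NN a)).relIndex ⊤ := by
    rw [Subgroup.relIndex_top_right]
  rw [h2, ← h1, Subgroup.relIndex_sup_right, Subgroup.relIndex_subgroupOf h.T_le_N, ← Subgroup.inf_relIndex_right,
    inf_comm, h.inf_C]
  exact h.relIndex_zpowers

/-- Subgroup `K`. -/
theorem exists_K (h : QData (T : Subgroup G) a x m) :
    ∃ (K : Subgroup G) (r : CC a →* G) (n : ℕ), Odd n ∧ (∀ c, r c ∈ zpowers a) ∧ r ⟨a, a_mem_C a⟩ = a ^ n ∧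
      (∀ c : CC a, r c = 1 ↔ (c : G) ∈ K) ∧
      (∀ y : G, y ∈ K ↔ y ∈ CC a ∧ Odd (orderOf y)) ∧
      Odd (Nat.card K) ∧ K ⊔ zpowers a = CC a := by
  obtain ⟨r, n, hn, hr, hra, hodd, hcompl⟩ := h.exists_retr
  refine ⟨r.ker.map (CC a).subtype, r, n, hn, hr, hra, ?_, ?_, ?_, ?_⟩
  · intro c
    constructor
    · intro h1
      exact ⟨c, h1, rfl⟩
    · rintro ⟨c', h1, h2⟩
      have : c' = c := Subtype.ext h2
      rw [← this]
      exact h1
  · intro y
    constructor
    · rintro ⟨c, hc, rfl⟩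
      refine ⟨c.2, ?_⟩
      have h1 : orderOf (⟨c, hc⟩ : r.ker) ∣ Nat.card r.ker := orderOf_dvd_natCard _
      rw [Subgroup.orderOf_mk] at h1
      rw [Subgroup.coe_subtype, Subgroup.orderOf_coe]
      rw [← Nat.not_even_iff_odd, even_iff_two_dvd]
      exact fun h2 => hodd (h2.trans h1)
    · rintro ⟨hy, hy2⟩
      exact ⟨⟨y, hy⟩, orderOf_map_eq_one_of_odd h hr hy2, rfl⟩
  · rw [Subgroup.card_map_of_injective (Subgroup.subtype_injective _), ← Nat.not_even_iff_odd, even_iff_two_dvd]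
    exact hodd
  · have h1 := congrArg (Subgroup.map (CC a).subtype) hcompl.sup_eq_top
    rw [Subgroup.map_sup, ← MonoidHom.range_eq_map, Subgroup.range_subtype,
      Subgroup.map_subgroupOf_eq_of_le (zpowers_le_C a)] at h1
    exact h1

/-- The local structure of `N(D)` (S0842). -/
theorem local_structure (h : QData (T : Subgroup G) a x m) :
    ∃ K : Subgroup G, Odd (Nat.card K) ∧ K ≤ CC a ∧ NN a ≤ normalizer (K : Set G) ∧ K ⊔ (T : Subgroup G) = NN a ∧
      K ⊔ ((T : Subgroup G) ⊓ CC a) = CC a ∧ ((CC a).subgroupOf (NN a)).index = 2 := by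
  obtain ⟨K, r, n, hn, hr, hra, hrK, hK, hodd, hsup⟩ := h.exists_K
  refine ⟨K, hodd, fun y hy => ((hK y).1 hy).1, ?_, ?_, ?_, h.index_two⟩
  · intro s hs
    rw [Subgroup.mem_normalizer_iff]
    intro y
    rw [hK, hK, conj_mem_C_iff hs]
    have h2 : orderOf (s * y * s⁻¹) = orderOf y := by
      have := orderOf_injective (MulAut.conj s).toMonoidHom (MulEquiv.injective _) y
      simpa using this
    rw [h2]
  · apply le_antisymm
    · exact sup_le (fun y hy => C_le_N a ((hK y).1 hy).1) h.T_le_N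
    · rw [← h.sup_eq_N, ← hsup, sup_assoc, sup_eq_right.2 h.zpowers_le]
  · rw [h.inf_C]
    exact hsup

/-- A conjugate into `⟨a⟩` of an element with large 2-part contains `a²`. -/
theorem sq_mem_zpowers_of_dvd (h : QData (T : Subgroup G) a x m) {b : G} (hb : b ∈ zpowers a) (hd : m ∣ orderOf b) :
    a ^ 2 ∈ zpowers b := by
  obtain ⟨i, rfl⟩ := (mem_powers_iff_mem_zpowers).2 hb
  rw [orderOf_pow, h.ha] at hd
  have hm := h.m_pos
  set g := (2 * m).gcd i with hg
  have hg1 : g ∣ 2 * m := Nat.gcd_dvd_left _ _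
  have hgpos : 0 < g := Nat.pos_of_dvd_of_pos hg1 (by omega)
  obtain ⟨q, hq⟩ := hd
  have h2 : g * q = 2 := by
    obtain ⟨c, hc⟩ := hg1
    have h3 : 2 * m / g = c := by
      rw [hc]
      exact Nat.mul_div_cancel_left _ hgpos
    rw [h3] at hq
    have h4 : 2 * m = m * (g * q) := by
      rw [hc, hq]
      ring
    have h5 : m * 2 = m * (g * q) := by rw [mul_comm, h4]
    exact (Nat.eq_of_mul_eq_mul_left hm h5).symm
  have h3 : a ^ g ∈ zpowers (a ^ i) := by
    refine mem_zpowers_iff.mpr ⟨Nat.gcdB (2 * m) i, ?_⟩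
    have h4 := Nat.gcd_eq_gcd_ab (2 * m) i
    have h5 : a ^ (g : ℤ) = a ^ (((2 * m : ℕ) : ℤ) * Nat.gcdA (2 * m) i + (i : ℤ) * Nat.gcdB (2 * m) i) := by
      rw [← h4]
    rw [zpow_natCast] at h5
    rw [h5, zpow_add, zpow_mul, zpow_natCast, ← h.ha, pow_orderOf_eq_one, one_zpow, one_mul, zpow_mul, zpow_natCast]
  have h6 : a ^ 2 = (a ^ g) ^ q := by
    rw [← pow_mul, h2]
  rw [h6]
  exact Subgroup.pow_mem _ h3 _

/-- (S0843, first part.) -/
theorem le_zpowers_of_dvd (h : QData (T : Subgroup G) a x m) {y : G} (hy : y ∈ CC a) (hd : m ∣ orderOf y) :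
    a ^ 2 ∈ zpowers y := by
  obtain ⟨k, hk⟩ := h.hm
  have hpos : 0 < orderOf y := orderOf_pos y
  obtain ⟨e, q, hq, he⟩ := Nat.exists_eq_two_pow_mul_odd hpos.ne'
  have hw : orderOf (y ^ q) = 2 ^ e := by
    rw [orderOf_pow, he]
    have h1 : (2 ^ e * q).gcd q = q := Nat.gcd_eq_right (Dvd.intro_left _ rfl)
    rw [h1]
    exact Nat.mul_div_cancel _ hq.pos
  have hme : m ∣ 2 ^ e := by
    have h1 : Nat.Coprime m q := by
      rw [hk]
      exact Nat.Coprime.pow_left _ (Nat.coprime_two_left.mpr hq)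
    rw [he] at hd
    exact h1.dvd_of_dvd_mul_right hd
  have hwC : y ^ q ∈ CC a := Subgroup.pow_mem _ hy _
  have hP : IsPGroup 2 (zpowers (y ^ q)) := IsPGroup.of_card (n := e) (by rw [Nat.card_zpowers, hw])
  obtain ⟨Q, hQ⟩ := h.exists_sylow_C
  have hS : Lib.Fusion.IsSylowIn 2 (zpowers a) (CC a) := ⟨Q, hQ⟩
  obtain ⟨c, hc, hcw⟩ := Lib.Fusion.IsSylowIn.exists_conj_le hS hP (by
    rw [Subgroup.zpowers_le]; exact hwC)
  have h1 := hcw (y ^ q) (mem_zpowers _)
  have h2 : orderOf (c * y ^ q * c⁻¹) = 2 ^ e := by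
    have := orderOf_injective (MulAut.conj c).toMonoidHom (MulEquiv.injective _) (y ^ q)
    rw [← hw, ← this]
    simp
  have h3 := h.sq_mem_zpowers_of_dvd h1 (by rw [h2]; exact hme)
  have h4 : c⁻¹ * a ^ 2 * c = a ^ 2 := by
    have := mem_centralizer_zpowers_iff.mp (Subgroup.inv_mem _ hc)
    simpa using this
  obtain ⟨i, hi⟩ := mem_zpowers_iff.mp h3
  have h5 : a ^ 2 = (y ^ q) ^ i := by
    rw [← h4]
    rw [← hi]
    have : (c * y ^ q * c⁻¹) ^ i = c * (y ^ q) ^ i * c⁻¹ := by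
      have := map_zpow (MulAut.conj c).toMonoidHom (y ^ q) i
      simpa using this.symm
    rw [this]
    group
  rw [h5]
  exact Subgroup.zpow_mem _ (Subgroup.pow_mem _ (mem_zpowers _) _) _

/-- (S0843, second part.) -/
theorem mem_N_of_conj (h : QData (T : Subgroup G) a x m) {g y : G} (hy : y ∈ CC a) (hd : m ∣ orderOf y)
    (hg : g * y * g⁻¹ ∈ CC a) : g ∈ NN a := by
  have hord : orderOf (g * y * g⁻¹) = orderOf y := by
    have := orderOf_injective (MulAut.conj g).toMonoidHom (MulEquiv.injective _) y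
    simpa using this
  have h1 := h.le_zpowers_of_dvd hy hd
  have h2 := h.le_zpowers_of_dvd hg (by rw [hord]; exact hd)
  apply mem_normalizer_zpowers
  -- both are elements of order `m` in the cyclic group `⟨g y g⁻¹⟩`
  set w := g * y * g⁻¹ with hw
  have h3 : g * a ^ 2 * g⁻¹ ∈ zpowers w := by
    obtain ⟨i, hi⟩ := mem_zpowers_iff.mp h1
    refine mem_zpowers_iff.mpr ⟨i, ?_⟩
    rw [hw, ← hi]
    have := map_zpow (MulAut.conj g).toMonoidHom y i
    simpa using this.symm
  have h4 : orderOf (⟨a ^ 2, h2⟩ : zpowers w) = m := by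
    rw [Subgroup.orderOf_mk, h.orderOf_sq]
  have h5 : (⟨g * a ^ 2 * g⁻¹, h3⟩ : zpowers w) ^ m = 1 := by
    apply Subtype.ext
    have h6 : (g * a ^ 2 * g⁻¹) ^ m = g * (a ^ 2) ^ m * g⁻¹ := by
      have := map_pow (MulAut.conj g).toMonoidHom (a ^ 2) m
      simpa using this.symm
    have h7 : (a ^ 2) ^ m = 1 := by
      rw [← h.orderOf_sq]
      exact pow_orderOf_eq_one _
    simp only [SubmonoidClass.coe_pow, OneMemClass.coe_one]
    rw [h6, h7]
    group
  have h8 := mem_zpowers_of_pow_eq_one' (by exact h.m_pos) h4 h5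
  obtain ⟨i, hi⟩ := mem_zpowers_iff.mp h8
  refine mem_zpowers_iff.mpr ⟨i, ?_⟩
  have := congrArg Subtype.val hi
  simpa using this

end QData

end Sylow

end Cfsg.Agent.Lib.BS
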