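import Cfsg.Agent.Lib.BS.Ind
import Cfsg.Agent.Lib.Block.Misc
import Cfsg.Agent.Lib.Degree.Cod
import Cfsg.Agent.Lib.Degree.Inflate
import Mathlib

/-!
# Brauer–Suzuki, order at least 16.  Owner: helper20.
-/

set_option autoImplicit false
set_option linter.unusedSectionVars false
set_option linter.unusedVariables false

namespace Cfsg.Agent.Lib.BS

open Subgroup Cfsg Cfsg.Agent.Lib.Char
open scoped commutatorElement Pointwise

universe u

variable {G : Type u} [Group G]

/-- The class-sum computation: the mean value of an irreducible character on products of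
two conjugates of `u` and `v`. -/
theorem sum_classSum_mul [Fintype G] (χ : IrrCharacter G) (u v : G) :
    ∑ h, ∑ k, (Lib.Block.classSum u).coeff h * (Lib.Block.classSum v).coeff k * (χ : G → ℂ) (h * k) =
      ((Subgroup.centralizer ({u} : Set G)).index : ℂ) * ((Subgroup.centralizer ({v} : Set G)).index : ℂ) *
        ((χ : G → ℂ) u * (χ : G → ℂ) v / (χ : G → ℂ) 1) := by
  classical
  have hcf := IsCharacter.isClassFunction (IsIrrCharacter.isCharacter χ.2)
  have h1 := Lib.Block.tr_mul_central χ.2 (Lib.Block.isCentralElt_classSum u) (Lib.Block.classSum v)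
  rw [Lib.Block.om_classSum hcf, Lib.Block.tr_classSum hcf, Lib.Block.tr_mul_eq_sum] at h1
  rw [h1]
  unfold Cfsg.centralChar
  ring

/-- The key identity: two irreducible characters differing by the principal character on products
of involutions have the involution in their kernels. -/
theorem eq_of_diff_one [Fintype G] (χ₁ χ₂ : IrrCharacter G) {z : G} (hd : (χ₁ : G → ℂ) 1 = (χ₂ : G → ℂ) 1 + 1)
    (hz : (χ₁ : G → ℂ) z = (χ₂ : G → ℂ) z + 1)
    (hprod : ∀ h k : G, IsConj z h → IsConj z k → (χ₁ : G → ℂ) (h * k) - (χ₂ : G → ℂ) (h * k) = 1) :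
    (χ₂ : G → ℂ) z = (χ₂ : G → ℂ) 1 ∧ (χ₁ : G → ℂ) z = (χ₁ : G → ℂ) 1 := by
  classical
  have h1 := sum_classSum_mul χ₁ z z
  have h2 := sum_classSum_mul χ₂ z z
  have h3 : ∑ h, ∑ k, (Lib.Block.classSum z).coeff h * (Lib.Block.classSum z).coeff k * (χ₁ : G → ℂ) (h * k) -
      ∑ h, ∑ k, (Lib.Block.classSum z).coeff h * (Lib.Block.classSum z).coeff k * (χ₂ : G → ℂ) (h * k) =
      ∑ h, ∑ k, (Lib.Block.classSum z).coeff h * (Lib.Block.classSum z).coeff k := by
    rw [← Finset.sum_sub_distrib]
    refine Finset.sum_congr rfl fun h _ => ?_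
    rw [← Finset.sum_sub_distrib]
    refine Finset.sum_congr rfl fun k _ => ?_
    rw [Lib.Block.coeff_classSum, Lib.Block.coeff_classSum]
    by_cases hh : IsConj z h
    · by_cases hk : IsConj z k
      · rw [if_pos hh, if_pos hk]
        have := hprod h k hh hk
        linear_combination this
      · rw [if_neg hk]
        ring
    · rw [if_neg hh]
      ring
  have h4 : ∑ h, ∑ k, (Lib.Block.classSum z).coeff h * (Lib.Block.classSum z).coeff k =
      ((Subgroup.centralizer ({z} : Set G)).index : ℂ) * ((Subgroup.centralizer ({z} : Set G)).index : ℂ) := by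
    simp only [← Finset.mul_sum, ← Finset.sum_mul, Lib.Block.sum_coeff_classSum]
  rw [h1, h2, h4] at h3
  have hc := Lib.Block.index_centralizer_ne_zero z
  have hd1 : (χ₁ : G → ℂ) 1 ≠ 0 := Lib.Block.isIrr_one_ne_zero χ₁.2
  have hd2 : (χ₂ : G → ℂ) 1 ≠ 0 := Lib.Block.isIrr_one_ne_zero χ₂.2
  have h5 : (χ₁ : G → ℂ) z * (χ₁ : G → ℂ) z / (χ₁ : G → ℂ) 1 - (χ₂ : G → ℂ) z * (χ₂ : G → ℂ) z / (χ₂ : G → ℂ) 1 = 1 := by
    have h6 : ((Subgroup.centralizer ({z} : Set G)).index : ℂ) * ((Subgroup.centralizer ({z} : Set G)).index : ℂ) ≠ 0 :=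
      mul_ne_zero hc hc
    apply mul_left_cancel₀ h6
    rw [mul_one, mul_sub]
    exact h3
  have hd1' : (χ₂ : G → ℂ) 1 + 1 ≠ 0 := by rwa [← hd]
  rw [hd, hz] at h5
  field_simp at h5
  have h7 : ((χ₂ : G → ℂ) 1 - (χ₂ : G → ℂ) z) ^ 2 = 0 := by
    linear_combination -h5
  have h8 : (χ₂ : G → ℂ) 1 - (χ₂ : G → ℂ) z = 0 := pow_eq_zero_iff (two_ne_zero) |>.mp h7
  have h9 : (χ₂ : G → ℂ) z = (χ₂ : G → ℂ) 1 := by linear_combination -h8
  refine ⟨h9, ?_⟩
  rw [hz, hd, h9]

/-- Irreducible characters with the commutator subgroup in the kernel are linear. -/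
theorem map_one_eq_one_of_commutator_le [Finite G] (χ : IrrCharacter G)
    (h : commutator G ≤ Lib.Degree.kerOf (χ : G → ℂ)) : (χ : G → ℂ) 1 = 1 := by
  have hker : Lib.Degree.KerContains (commutator G) (χ : G → ℂ) :=
    (Lib.Degree.kerContains_iff (IsIrrCharacter.isCharacter χ.2) _).2 h
  obtain ⟨ψ, rfl⟩ := Lib.Degree.exists_inflate (commutator G) hker
  have hcomm : ∀ a b : G ⧸ commutator G, a * b = b * a := fun a b => mul_comm (G := Abelianization G) a b
  have h1 := charDegree_eq_one_of_comm hcomm ψ.2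
  rw [Lib.Degree.inflate_apply]
  simpa using h1

section Inv

variable [Finite G] {T : Sylow 2 G} {a x : G} {m : ℕ}

namespace QData

/-- The unique involution of `T`. -/
theorem eq_of_orderOf_two (h : QData (T : Subgroup G) a x m) {s : G} (hs : s ∈ (T : Subgroup G)) (h2 : orderOf s = 2) :
    s = a ^ m := by
  have hsq : s ^ 2 = 1 := by
    rw [← h2]
    exact pow_orderOf_eq_one s
  have hs1 : s ≠ 1 := by
    rintro rfl
    simp at h2
  rcases h.exists_form hs with ⟨i, rfl⟩ | ⟨i, rfl⟩
  · have h3 : a ^ (i * 2) = 1 := by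
      rw [zpow_mul]
      exact_mod_cast hsq
    have h4 : ((2 * m : ℕ) : ℤ) ∣ i * 2 := by
      rw [← h.ha]
      exact orderOf_dvd_iff_zpow_eq_one.2 h3
    have h5 : (m : ℤ) ∣ i := by
      have hm := h.m_pos
      obtain ⟨q, hq⟩ := h4
      refine ⟨q, ?_⟩
      push_cast at hq
      linarith
    obtain ⟨q, rfl⟩ := h5
    rcases Int.even_or_odd q with ⟨r, rfl⟩ | ⟨r, rfl⟩
    · exfalso
      apply hs1
      have h6 : (a ^ (m : ℤ)) ^ (2 : ℤ) = 1 := by
        rw [← zpow_mul, show (m : ℤ) * 2 = ((2 * m : ℕ) : ℤ) by push_cast; ring, zpow_natCast, ← h.ha,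
          pow_orderOf_eq_one]
      have h7 : (m : ℤ) * (r + r) = (m : ℤ) * 2 * r := by ring
      rw [h7, zpow_mul, zpow_mul, h6, one_zpow]
    · have h6 : (a ^ (m : ℤ)) ^ (2 : ℤ) = 1 := by
        rw [← zpow_mul, show (m : ℤ) * 2 = ((2 * m : ℕ) : ℤ) by push_cast; ring, zpow_natCast, ← h.ha,
          pow_orderOf_eq_one]
      have h7 : (m : ℤ) * (2 * r + 1) = (m : ℤ) * 2 * r + (m : ℤ) := by ring
      rw [h7, zpow_add, zpow_mul, zpow_mul, h6, one_zpow, one_mul, zpow_natCast]
  · exfalso
    have h3 : (x * a ^ i) ^ 2 = a ^ m := by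
      have h4 : x * a ^ i * x⁻¹ = a ^ (-i) := h.conj_zpow i
      calc (x * a ^ i) ^ 2 = (x * a ^ i * x⁻¹) * (x ^ 2) * a ^ i := by
            rw [pow_two, pow_two]
            group
        _ = a ^ (-i) * a ^ m * a ^ i := by rw [h4, h.hx2]
        _ = a ^ m := by
          have hc : Commute (a ^ (-i)) (a ^ m) := ((Commute.refl a).zpow_left _).pow_right _
          rw [hc.eq, mul_assoc, ← zpow_add]
          simp
    rw [h3] at hsq
    have h5 := orderOf_dvd_of_pow_eq_one hsq
    rw [h.ha] at h5
    have hm := h.m_pos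
    have := Nat.le_of_dvd hm h5
    omega

theorem exists_conj_of_le (h : QData (T : Subgroup G) a x m) (T' : Sylow 2 G) :
    ∃ g : G, ∀ s, s ∈ (T' : Subgroup G) → g⁻¹ * s * g ∈ (T : Subgroup G) := by
  obtain ⟨g, hg⟩ := MulAction.exists_smul_eq G T T'
  refine ⟨g, fun s hs => ?_⟩
  rw [← hg, Sylow.coe_subgroup_smul, Subgroup.mem_pointwise_smul_iff_inv_smul_mem] at hs
  simpa [MulAut.smul_def, MulAut.conj_inv_apply, mul_assoc] using hs

/-- Each Sylow subgroup has one involution. -/
theorem eq_of_mem_sylow (h : QData (T : Subgroup G) a x m) (T' : Sylow 2 G) {s w : G} (hs : s ∈ (T' : Subgroup G))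
    (hw : w ∈ (T' : Subgroup G)) (h2s : orderOf s = 2) (h2w : orderOf w = 2) : s = w := by
  obtain ⟨g, hg⟩ := h.exists_conj_of_le T'
  have ho : ∀ y : G, orderOf (g⁻¹ * y * g) = orderOf y := by
    intro y
    have := orderOf_injective (MulAut.conj g⁻¹).toMonoidHom (MulEquiv.injective _) y
    simpa using this
  have h1 := h.eq_of_orderOf_two (hg s hs) (by rw [ho, h2s])
  have h3 := h.eq_of_orderOf_two (hg w hw) (by rw [ho, h2w])
  have h4 : g⁻¹ * s * g = g⁻¹ * w * g := h1.trans h3.symm
  have h5 := mul_right_cancel h4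
  exact mul_left_cancel h5

/-- Any two commuting involutions are equal. -/
theorem eq_of_commute (h : QData (T : Subgroup G) a x m) {s w : G} (hc : s * w = w * s)
    (h2s : orderOf s = 2) (h2w : orderOf w = 2) : s = w := by
  have h1 : IsPGroup 2 (zpowers s) := IsPGroup.of_card (n := 1) (by rw [Nat.card_zpowers, h2s, pow_one])
  have h3 : IsPGroup 2 (zpowers w) := IsPGroup.of_card (n := 1) (by rw [Nat.card_zpowers, h2w, pow_one])
  have h4 : zpowers s ≤ normalizer (zpowers w : Set G) := by
    rw [Subgroup.zpowers_le]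
    apply mem_normalizer_zpowers
    rw [hc]
    simp
  have h5 := h1.to_sup_of_normal_right' h3 h4
  obtain ⟨T', hT'⟩ := h5.exists_le_sylow
  exact h.eq_of_mem_sylow T' (hT' ((le_sup_left : zpowers s ≤ _) (mem_zpowers s)))
    (hT' ((le_sup_right : zpowers w ≤ _) (mem_zpowers w))) h2s h2w

theorem orderOf_am (h : QData (T : Subgroup G) a x m) : orderOf (a ^ m) = 2 := by
  rw [orderOf_pow' a h.m_pos.ne', h.ha]
  have hm := h.m_pos
  have h1 : (2 * m).gcd m = m := Nat.gcd_eq_right (Dvd.intro_left _ rfl)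
  rw [h1]
  exact Nat.mul_div_cancel _ hm

theorem am_mem (h : QData (T : Subgroup G) a x m) : a ^ m ∈ (T : Subgroup G) :=
  Subgroup.pow_mem _ h.haS _

/-- All involutions are conjugate. -/
theorem isConj_of_orderOf_two (h : QData (T : Subgroup G) a x m) {s : G} (h2s : orderOf s = 2) : IsConj (a ^ m) s := by
  have h1 : IsPGroup 2 (zpowers s) := IsPGroup.of_card (n := 1) (by rw [Nat.card_zpowers, h2s, pow_one])
  obtain ⟨T', hT'⟩ := h1.exists_le_sylow
  obtain ⟨g, hg⟩ := h.exists_conj_of_le T'
  have h3 := hg s (hT' (mem_zpowers s))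
  have ho : orderOf (g⁻¹ * s * g) = orderOf s := by
    have := orderOf_injective (MulAut.conj g⁻¹).toMonoidHom (MulEquiv.injective _) s
    simpa using this
  have h4 := h.eq_of_orderOf_two h3 (by rw [ho, h2s])
  rw [isConj_comm, isConj_iff]
  exact ⟨g⁻¹, by simpa using h4⟩

/-- A product of two involutions has order prime to 4. -/
theorem not_four_dvd_mul (h : QData (T : Subgroup G) a x m) {s w : G} (h2s : orderOf s = 2) (h2w : orderOf w = 2) :
    ¬ 4 ∣ orderOf (s * w) := by
  intro h4
  have hsq : s * s = 1 := by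
    rw [← pow_two, ← h2s]
    exact pow_orderOf_eq_one s
  have hwq : w * w = 1 := by
    rw [← pow_two, ← h2w]
    exact pow_orderOf_eq_one w
  have hsi : s⁻¹ = s := inv_eq_of_mul_eq_one_left hsq
  have hwi : w⁻¹ = w := inv_eq_of_mul_eq_one_left hwq
  obtain ⟨q, hq⟩ := h4
  set y := s * w with hy
  have hyo : orderOf (y ^ (2 * q)) = 2 := by
    rw [orderOf_pow' y (by
      rintro h0
      have : orderOf y = 0 := by rw [hq]; nlinarith
      exact (orderOf_pos y).ne' this), hq]
    have hqpos : 0 < q := by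
      rcases Nat.eq_zero_or_pos q with h0 | h0
      · rw [h0] at hq
        exact absurd hq (by simpa using (orderOf_pos y).ne')
      · exact h0
    have h1 : (4 * q).gcd (2 * q) = 2 * q := Nat.gcd_eq_right ⟨2, by ring⟩
    rw [h1]
    have : 4 * q = 2 * (2 * q) := by ring
    rw [this]
    exact Nat.mul_div_cancel _ (by omega)
  have hyinv : ∀ k : ℕ, s * y ^ k * s⁻¹ = (y⁻¹) ^ k := by
    intro k
    have h1 : s * y * s⁻¹ = y⁻¹ := by
      rw [hy, mul_inv_rev, hsi, hwi, ← mul_assoc s s w, hsq, one_mul]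
    have := map_pow (MulAut.conj s).toMonoidHom y k
    simp only [MulEquiv.coe_toMonoidHom, MulAut.conj_apply] at this
    rw [this, h1]
  have hyinv2 : ∀ k : ℕ, w * y ^ k * w⁻¹ = (y⁻¹) ^ k := by
    intro k
    have h1 : w * y * w⁻¹ = y⁻¹ := by
      rw [hy, mul_inv_rev, hsi, hwi, mul_assoc w (s * w) w, mul_assoc s w w, hwq, mul_one]
    have := map_pow (MulAut.conj w).toMonoidHom y k
    simp only [MulEquiv.coe_toMonoidHom, MulAut.conj_apply] at this
    rw [this, h1]
  have hinv : (y⁻¹) ^ (2 * q) = y ^ (2 * q) := by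
    have h1 : (y ^ (2 * q)) ^ 2 = 1 := by
      have := pow_orderOf_eq_one (y ^ (2 * q))
      rwa [hyo] at this
    rw [inv_pow]
    exact inv_eq_of_mul_eq_one_left (by rw [← pow_two]; exact h1)
  have hcs : s * y ^ (2 * q) = y ^ (2 * q) * s := by
    have := hyinv (2 * q)
    rw [hinv, hsi] at this
    calc s * y ^ (2 * q) = (s * y ^ (2 * q) * s) * s := by rw [mul_assoc (s * _) s s, hsq, mul_one]
      _ = y ^ (2 * q) * s := by rw [this]
  have hcw : w * y ^ (2 * q) = y ^ (2 * q) * w := by
    have := hyinv2 (2 * q)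
    rw [hinv, hwi] at this
    calc w * y ^ (2 * q) = (w * y ^ (2 * q) * w) * w := by rw [mul_assoc (w * _) w w, hwq, mul_one]
      _ = y ^ (2 * q) * w := by rw [this]
  have e1 := h.eq_of_commute hcs h2s hyo
  have e2 := h.eq_of_commute hcw h2w hyo
  have e3 : s = w := e1.trans e2.symm
  have hy1 : y = 1 := by
    rw [hy, e3, hwq]
  rw [hy1] at hq
  simp at hq
  omega

end QData

end Inv

section Final

variable [Fintype G] {T : Sylow 2 G} {a x : G} {m : ℕ}

namespace QData

/-- The main consequence of the character computation. -/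
theorem exists_ker (h : QData (T : Subgroup G) a x m) :
    ∃ χ₁ : IrrCharacter G, (commutator G ≤ Lib.Degree.kerOf (χ₁ : G → ℂ) → False) ∧
      a ^ m ∈ Lib.Degree.kerOf (χ₁ : G → ℂ) ∧ (Lib.Degree.kerOf (χ₁ : G → ℂ)).Normal ∧
      (T : Subgroup G) ⊓ Lib.Degree.kerOf (χ₁ : G → ℂ) ≤ zpowers a := by
  obtain ⟨χ₁, χ₂, h1, h2, hdeg, hval, ha2⟩ := h.exists_chars
  have h2z := h.orderOf_am
  have hz : ¬ 4 ∣ orderOf (a ^ m) := by
    rw [h2z]
    norm_num
  have hzval := hval _ hz
  have hprod : ∀ s w : G, IsConj (a ^ m) s → IsConj (a ^ m) w → (χ₁ : G → ℂ) (s * w) - (χ₂ : G → ℂ) (s * w) = 1 := by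
    intro s w hs hw
    apply hval
    apply h.not_four_dvd_mul
    · rw [← h2z]
      obtain ⟨c, rfl⟩ := isConj_iff.1 hs
      have := orderOf_injective (MulAut.conj c).toMonoidHom (MulEquiv.injective _) (a ^ m)
      simpa using this
    · rw [← h2z]
      obtain ⟨c, rfl⟩ := isConj_iff.1 hw
      have := orderOf_injective (MulAut.conj c).toMonoidHom (MulEquiv.injective _) (a ^ m)
      simpa using this
  obtain ⟨e2, e1⟩ := eq_of_diff_one χ₁ χ₂ hdeg (by linear_combination hzval) hprod
  have hc1 := IsIrrCharacter.isCharacter χ₁.2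
  have hc2 := IsIrrCharacter.isCharacter χ₂.2
  have hnormal : (Lib.Degree.kerOf (χ₁ : G → ℂ)).Normal :=
    Lib.Degree.kerOf_normal (IsCharacter.isClassFunction hc1)
  refine ⟨χ₁, ?_, (Lib.Degree.mem_kerOf_iff hc1).2 e1, hnormal, ?_⟩
  · intro hle
    have h3 := map_one_eq_one_of_commutator_le χ₁ hle
    have hd : (χ₂ : G → ℂ) 1 = 0 := by
      rw [h3] at hdeg
      linear_combination -hdeg
    exact Lib.Block.isIrr_one_ne_zero χ₂.2 hd
  · rintro y ⟨hyT, hyM⟩
    by_contra hy
    rcases h.exists_form hyT with ⟨i, rfl⟩ | ⟨i, rfl⟩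
    · exact hy (Subgroup.zpow_mem _ (mem_zpowers a) i)
    · -- then `a²` is in the kernel
      have h3 : ⁅a, x * a ^ i⁆ = a ^ 2 := by
        have := h.commutator_a_x 1 i
        simpa using this
      have h4 : a ^ 2 ∈ Lib.Degree.kerOf (χ₁ : G → ℂ) := by
        rw [← h3, commutatorElement_def]
        exact (Lib.Degree.kerOf (χ₁ : G → ℂ)).mul_mem (hnormal.conj_mem _ hyM a) ((Lib.Degree.kerOf (χ₁ : G → ℂ)).inv_mem hyM)
      have h5 := (Lib.Degree.mem_kerOf_iff hc1).1 h4
      have h6 : (χ₂ : G → ℂ) (a ^ 2) = (χ₂ : G → ℂ) 1 + 4 := by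
        rw [h5, hdeg] at ha2
        linear_combination ha2
      have h7 := norm_le_charDegree hc2 (a ^ 2)
      have h8 := map_one_eq_charDegree hc2
      rw [h6, h8] at h7
      have h9 : ‖((charDegree (χ₂ : G → ℂ) : ℂ) + 4)‖ = (charDegree (χ₂ : G → ℂ) : ℝ) + 4 := by
        have : ((charDegree (χ₂ : G → ℂ) : ℂ) + 4) = (((charDegree (χ₂ : G → ℂ) + 4 : ℕ)) : ℂ) := by push_cast; ring
        rw [this, Complex.norm_natCast]
        push_cast
        ring
      rw [h9] at h7
      linarith

end QData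

end Final

section Final2

variable [Finite G] {T : Sylow 2 G} {a x : G} {m : ℕ}

namespace QData

/-- Sylow subgroups of the subgroup generated by the involutions are cyclic. -/
theorem isCyclic_sylow_closure (h : QData (T : Subgroup G) a x m)
    (Q : Sylow 2 (closure {g : G | orderOf g = 2})) : IsCyclic Q := by
  classical
  haveI : Fintype G := Fintype.ofFinite G
  obtain ⟨χ, -, hz, hn, hle⟩ := h.exists_ker
  set M := Lib.Degree.kerOf (χ : G → ℂ) with hM
  have hLM : closure {g : G | orderOf g = 2} ≤ M := by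
    rw [Subgroup.closure_le]
    intro s hs
    obtain ⟨c, rfl⟩ := isConj_iff.1 (h.isConj_of_orderOf_two hs)
    exact hn.conj_mem _ hz c
  have hQ' : IsPGroup 2 ((Q : Subgroup _).map (closure {g : G | orderOf g = 2}).subtype) := Q.isPGroup'.map _
  obtain ⟨T', hT'⟩ := hQ'.exists_le_sylow
  obtain ⟨g, hg⟩ := h.exists_conj_of_le T'
  have hmem : ∀ q : Q, g⁻¹ * ((q : closure {g : G | orderOf g = 2}) : G) * g ∈ zpowers a := by
    intro q
    apply hle
    refine ⟨hg _ (hT' ⟨_, q.2, rfl⟩), ?_⟩
    have := hn.conj_mem _ (hLM (q : closure {g : G | orderOf g = 2}).2) g⁻¹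
    simpa using this
  let φ : Q →* zpowers a :=
    MonoidHom.codRestrict
      ((MulAut.conj g⁻¹).toMonoidHom.comp ((closure {g : G | orderOf g = 2}).subtype.comp (Q : Subgroup _).subtype))
      (zpowers a) (fun q => by
        have := hmem q
        simpa using this)
  have hinj : Function.Injective φ := by
    intro q q' hq
    have h1 := congrArg Subtype.val hq
    simp only [φ, MonoidHom.codRestrict_apply, MonoidHom.comp_apply, MulEquiv.coe_toMonoidHom] at h1
    have h2 := (MulEquiv.injective _) h1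
    exact Subtype.ext (Subtype.ext h2)
  exact isCyclic_of_injective φ hinj

theorem even_ker (h : QData (T : Subgroup G) a x m) {M : Subgroup G} (hz : a ^ m ∈ M) : Even (Nat.card M) := by
  rw [even_iff_two_dvd]
  have h1 : orderOf (⟨a ^ m, hz⟩ : M) ∣ Nat.card M := orderOf_dvd_natCard _
  rwa [Subgroup.orderOf_mk, h.orderOf_am] at h1

/-- `G` has a normal subgroup of even order not containing the commutator subgroup. -/
theorem exists_M (h : QData (T : Subgroup G) a x m) :
    ∃ M : Subgroup G, M.Normal ∧ Even (Nat.card M) ∧ ¬ commutator G ≤ M := by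
  classical
  haveI : Fintype G := Fintype.ofFinite G
  obtain ⟨χ, h1, hz, hn, hle⟩ := h.exists_ker
  exact ⟨_, hn, h.even_ker hz, h1⟩

/-- Brauer–Suzuki in the order `≥ 16` case. -/
theorem card_center (h : QData (T : Subgroup G) a x m)
    (hO : ∀ N : Subgroup G, N.Normal → Odd (Nat.card N) → N = ⊥) : Nat.card (center G) = 2 := by
  classical
  set L := closure {g : G | orderOf g = 2} with hL
  have hLn : L.Normal := by
    refine ⟨fun n hn g => ?_⟩
    induction hn using Subgroup.closure_induction with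
    | mem y hy =>
      apply Subgroup.subset_closure
      have hy' : orderOf y = 2 := hy
      have := orderOf_injective (MulAut.conj g).toMonoidHom (MulEquiv.injective _) y
      have h3 : orderOf (g * y * g⁻¹) = orderOf y := by simpa using this
      show orderOf (g * y * g⁻¹) = 2
      rw [h3, hy']
    | one => simp [L.one_mem]
    | mul u v _ _ hu hv =>
      have : g * (u * v) * g⁻¹ = (g * u * g⁻¹) * (g * v * g⁻¹) := by group
      rw [this]
      exact L.mul_mem hu hv
    | inv u _ hu =>
      have : g * u⁻¹ * g⁻¹ = (g * u * g⁻¹)⁻¹ := by group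
      rw [this]
      exact L.inv_mem hu
  obtain ⟨Q⟩ : Nonempty (Sylow 2 L) := inferInstance
  have hcyc : IsCyclic Q := h.isCyclic_sylow_closure Q
  have hzL : a ^ m ∈ L := Subgroup.subset_closure h.orderOf_am
  have hmin : (Nat.card L).minFac = 2 := by
    rw [Nat.minFac_eq_two_iff]
    have h1 : orderOf (⟨a ^ m, hzL⟩ : L) ∣ Nat.card L := orderOf_dvd_natCard _
    rwa [Subgroup.orderOf_mk, h.orderOf_am] at h1
  have hN := IsCyclic.normalizer_le_centralizer hmin hcyc
  set t := MonoidHom.transferSylow Q hN with ht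
  have hodd : ¬ 2 ∣ Nat.card t.ker := MonoidHom.not_dvd_card_ker_transferSylow Q hN
  have htodd : ∀ y : L, Odd (orderOf y) → t y = 1 := by
    intro y hy
    obtain ⟨k, hk⟩ := Q.isPGroup' (t y)
    have h1 : orderOf (t y) ∣ orderOf y := orderOf_map_dvd t y
    have h2 : orderOf (t y) ∣ 2 ^ k := orderOf_dvd_of_pow_eq_one hk
    have h3 : Nat.Coprime (orderOf y) (2 ^ k) := Nat.Coprime.pow_right _ (Nat.coprime_two_right.mpr hy)
    exact orderOf_eq_one_iff.mp (Nat.eq_one_of_dvd_coprimes h3 h1 h2)
  have hEnormal : (t.ker.map L.subtype).Normal := by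
    refine ⟨fun y hy g => ?_⟩
    obtain ⟨k, hk, rfl⟩ := hy
    have h1 : g * (k : G) * g⁻¹ ∈ L := hLn.conj_mem _ k.2 g
    refine ⟨⟨_, h1⟩, ?_, rfl⟩
    apply htodd
    rw [Subgroup.orderOf_mk]
    have h3 : orderOf (g * (k : G) * g⁻¹) = orderOf (k : G) := by
      have := orderOf_injective (MulAut.conj g).toMonoidHom (MulEquiv.injective _) (k : G)
      simpa using this
    rw [h3, Subgroup.orderOf_coe]
    have h4 : orderOf (⟨k, hk⟩ : t.ker) ∣ Nat.card t.ker := orderOf_dvd_natCard _
    rw [Subgroup.orderOf_mk] at h4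
    rw [← Nat.not_even_iff_odd, even_iff_two_dvd]
    exact fun h5 => hodd (h5.trans h4)
  have hE : t.ker.map L.subtype = ⊥ := by
    apply hO _ hEnormal
    rw [Subgroup.card_map_of_injective (Subgroup.subtype_injective _), ← Nat.not_even_iff_odd, even_iff_two_dvd]
    exact hodd
  have hEb : t.ker = ⊥ := by
    rwa [Subgroup.map_eq_bot_iff_of_injective _ (Subgroup.subtype_injective _)] at hE
  have htinj : Function.Injective t := (MonoidHom.ker_eq_bot_iff t).1 hEb
  have hcomm : ∀ u v : L, u * v = v * u := by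
    intro u v
    apply htinj
    rw [map_mul, map_mul]
    haveI : IsMulCommutative Q := IsCyclic.isMulCommutative
    exact mul_comm' _ _
  have hall : ∀ s w : G, orderOf s = 2 → orderOf w = 2 → s = w := by
    intro s w h1 h2
    have h3 := hcomm ⟨s, Subgroup.subset_closure h1⟩ ⟨w, Subgroup.subset_closure h2⟩
    exact h.eq_of_commute (congrArg Subtype.val h3) h1 h2
  have hzc : a ^ m ∈ center G := by
    rw [Subgroup.mem_center_iff]
    intro g
    have h3 : orderOf (g * a ^ m * g⁻¹) = orderOf (a ^ m) := by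
      have := orderOf_injective (MulAut.conj g).toMonoidHom (MulEquiv.injective _) (a ^ m)
      simpa using this
    have h4 := hall (g * a ^ m * g⁻¹) (a ^ m) (by rw [h3, h.orderOf_am]) h.orderOf_am
    rw [mul_inv_eq_iff_eq_mul] at h4
    exact h4
  have hcenter : center G = zpowers (a ^ m) := by
    apply le_antisymm
    · intro y hy
      obtain ⟨e, q, hq, he⟩ := Nat.exists_eq_two_pow_mul_odd (orderOf_pos y).ne'
      have hw : orderOf (y ^ (2 ^ e)) = q := by
        rw [orderOf_pow, he]
        have h1 : (2 ^ e * q).gcd (2 ^ e) = 2 ^ e := Nat.gcd_eq_right (Dvd.intro _ rfl)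
        rw [h1]
        exact Nat.mul_div_cancel_left _ (by positivity)
      have hwc : y ^ (2 ^ e) ∈ center G := Subgroup.pow_mem _ hy _
      have hwn : (zpowers (y ^ (2 ^ e))).Normal := by
        refine ⟨fun n hn g => ?_⟩
        have h5 : n ∈ center G := by
          have h6 : zpowers (y ^ (2 ^ e)) ≤ center G := by
            rw [Subgroup.zpowers_le]
            exact hwc
          exact h6 hn
        have h7 := Subgroup.mem_center_iff.1 h5 g
        rw [h7]
        simpa using hn
      have hw1 := hO _ hwn (by rw [Nat.card_zpowers, hw]; exact hq)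
      have hq1 : q = 1 := by
        rw [← hw, orderOf_eq_one_iff]
        rwa [Subgroup.zpowers_eq_bot] at hw1
      have hyord : orderOf y = 2 ^ e := by
        rw [he, hq1, mul_one]
      have hyn : (zpowers y).Normal := by
        refine ⟨fun n hn g => ?_⟩
        have h5 : n ∈ center G := by
          have h6 : zpowers y ≤ center G := by
            rw [Subgroup.zpowers_le]
            exact hy
          exact h6 hn
        have h7 := Subgroup.mem_center_iff.1 h5 g
        rw [h7]
        simpa using hn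
      have hyp : IsPGroup 2 (zpowers y) := IsPGroup.of_card (n := e) (by rw [Nat.card_zpowers, hyord])
      have hyT : y ∈ (T : Subgroup G) := hyp.le_sylow_of_normal T (mem_zpowers y)
      rcases h.exists_form hyT with ⟨i, rfl⟩ | ⟨i, rfl⟩
      · have h8 := Subgroup.mem_center_iff.1 hy x
        have h9 := h.conj_zpow i
        rw [h8] at h9
        have h10 : a ^ i = a ^ (-i) := by
          rw [← h9]
          group
        have h11 : a ^ (i * 2) = 1 := by
          have : i * 2 = i + i := by ring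
          nth_rewrite 1 [this]
          rw [zpow_add]
          nth_rewrite 1 [h10]
          rw [← zpow_add]
          simp
        have h12 : ((2 * m : ℕ) : ℤ) ∣ i * 2 := by
          rw [← h.ha]
          exact orderOf_dvd_iff_zpow_eq_one.2 h11
        have h13 : (m : ℤ) ∣ i := by
          have hm := h.m_pos
          obtain ⟨c, hc⟩ := h12
          refine ⟨c, ?_⟩
          push_cast at hc
          linarith
        obtain ⟨c, rfl⟩ := h13
        refine mem_zpowers_iff.mpr ⟨c, ?_⟩
        rw [← zpow_natCast, ← zpow_mul]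
      · exfalso
        have h8 := Subgroup.mem_center_iff.1 hy a
        -- `a` commutes with `x * a ^ i`, hence with `x`
        have h9 : a * x = x * a := by
          have hc : a ^ i * a = a * a ^ i := (Commute.refl a).zpow_left i |>.eq
          have h10 : a * x * a ^ i = x * a * a ^ i := by
            calc a * x * a ^ i = a * (x * a ^ i) := by group
              _ = x * a ^ i * a := h8
              _ = x * (a ^ i * a) := by group
              _ = x * (a * a ^ i) := by rw [hc]
              _ = x * a * a ^ i := by group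
          exact mul_right_cancel h10
        have h10 : x * a * x⁻¹ = a := by
          rw [← h9]
          group
        have h11 := h.hxa
        rw [h10] at h11
        apply h.a_sq_ne_inv
        have h12 : a ^ 2 = a * a := pow_two a
        have h13 : (a * a)⁻¹ = a⁻¹ * a⁻¹ := by group
        rw [h12, h13, ← h11]
    · rw [Subgroup.zpowers_le]
      exact hzc
  rw [hcenter, Nat.card_zpowers, h.orderOf_am]

end QData

end Final2

end Cfsg.Agent.Lib.BS
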